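import Cfsg.Agent.Screen.CosetEnum.Core

/-!
# Checking word identities in a Coxeter group by listed moves
-/

set_option autoImplicit false

namespace Cfsg.Agent.Screen.CosetEnum

/-- A move at the front of a word: cancel, swap or braid. -/
def moveHead (ng : ℕ) (br : ℕ → ℕ → Bool) : ℕ → List ℕ → Option (List ℕ)
  | 0, a :: b :: l => bif Nat.beq a b then some l else none
  | 1, a :: b :: l => bif !Nat.beq a b && !br a b && Nat.blt a ng && Nat.blt b ng then some (b :: a :: l) else none
  | 2, a :: b :: c :: l => bif Nat.beq a c && br a b && Nat.blt a ng && Nat.blt b ng then some (b :: a :: b :: l) else none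
  | _, _ => none

/-- A move at a position. -/
def moveAt (ng : ℕ) (br : ℕ → ℕ → Bool) (k : ℕ) : ℕ → List ℕ → Option (List ℕ)
  | 0, l => moveHead ng br k l
  | _ + 1, [] => none
  | i + 1, a :: l =>
    match moveAt ng br k i l with
    | none => none
    | some r => some (a :: r)

/-- All moves in turn. -/
def reduceWord (ng : ℕ) (br : ℕ → ℕ → Bool) : List (ℕ × ℕ) → List ℕ → Option (List ℕ)
  | [], l => some l
  | (k, i) :: s, l =>
    match moveAt ng br k i l with
    | none => none
    | some r => reduceWord ng br s r

/-- The word reduces to the empty word. -/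
def reducesTo (ng : ℕ) (br : ℕ → ℕ → Bool) (s : List (ℕ × ℕ)) (l : List ℕ) : Bool :=
  match reduceWord ng br s l with
  | some [] => true
  | _ => false

variable {G : Type*} [Group G] {y : ℕ → G} {ng : ℕ} {br : ℕ → ℕ → Bool}
  (hs : ∀ x, y x * y x = 1)
  (hc : ∀ a b, a < ng → b < ng → br a b = false → a ≠ b → y a * y b = y b * y a)
  (hb : ∀ a b, a < ng → b < ng → br a b = true → y a * y b * y a = y b * y a * y b)
include hs hc hb

theorem moveHead_spec : ∀ (k : ℕ) (l r : List ℕ), moveHead ng br k l = some r → evalW y r = evalW y l := by
  intro k l r h
  match k, l, h with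
  | 0, a :: b :: l, h =>
    simp only [moveHead] at h
    cases hab : Nat.beq a b with
    | false => simp [hab] at h
    | true =>
      simp only [hab, cond_true, Option.some.injEq] at h
      subst h
      obtain rfl : a = b := Nat.eq_of_beq_eq_true hab
      simp only [evalW, mul_assoc, hs, mul_one]
  | 1, a :: b :: l, h =>
    simp only [moveHead] at h
    cases hab : (!Nat.beq a b && !br a b && Nat.blt a ng && Nat.blt b ng) with
    | false => simp [hab] at h
    | true =>
      simp only [hab, cond_true, Option.some.injEq] at h
      subst h
      simp only [Bool.and_eq_true, Bool.not_eq_true', Nat.blt_eq] at hab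
      have hne : a ≠ b := fun e => by
        have := hab.1.1.1
        rw [e] at this
        simp at this
      simp only [evalW, mul_assoc]
      rw [hc a b hab.1.2 hab.2 hab.1.1.2 hne]
  | 2, a :: b :: c :: l, h =>
    simp only [moveHead] at h
    cases hab : (Nat.beq a c && br a b && Nat.blt a ng && Nat.blt b ng) with
    | false => simp [hab] at h
    | true =>
      simp only [hab, cond_true, Option.some.injEq] at h
      subst h
      simp only [Bool.and_eq_true, Nat.blt_eq] at hab
      obtain rfl : a = c := Nat.eq_of_beq_eq_true hab.1.1.1
      have h3 := hb a b hab.1.2 hab.2 hab.1.1.2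
      simp only [evalW, mul_assoc] at h3 ⊢
      rw [h3]
  | 0, [], h => simp [moveHead] at h
  | 0, [_], h => simp [moveHead] at h
  | 1, [], h => simp [moveHead] at h
  | 1, [_], h => simp [moveHead] at h
  | 2, [], h => simp [moveHead] at h
  | 2, [_], h => simp [moveHead] at h
  | 2, [_, _], h => simp [moveHead] at h
  | _ + 3, _, h => simp [moveHead] at h

theorem moveAt_spec : ∀ (k i : ℕ) (l r : List ℕ), moveAt ng br k i l = some r → evalW y r = evalW y l := by
  intro k i
  induction i with
  | zero => intro l r h; exact moveHead_spec hs hc hb k l r h
  | succ i ih =>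
    intro l r h
    match l with
    | [] => simp [moveAt] at h
    | a :: l =>
      unfold moveAt at h
      cases hm : moveAt ng br k i l with
      | none => simp [hm] at h
      | some r' =>
        simp only [hm, Option.some.injEq] at h
        subst h
        simp only [evalW, ih l r' hm]

theorem reduceWord_spec : ∀ (s : List (ℕ × ℕ)) (l r : List ℕ), reduceWord ng br s l = some r →
    evalW y r = evalW y l := by
  intro s
  induction s with
  | nil => intro l r h; simp only [reduceWord, Option.some.injEq] at h; rw [h]
  | cons a s ih =>
    obtain ⟨k, i⟩ := a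
    intro l r h
    unfold reduceWord at h
    cases hm : moveAt ng br k i l with
    | none => simp [hm] at h
    | some r' =>
      simp only [hm] at h
      rw [ih r' r h, moveAt_spec hs hc hb k i l r' hm]

theorem eq_one_of_reducesTo (s : List (ℕ × ℕ)) (l : List ℕ) (h : reducesTo ng br s l = true) :
    evalW y l = 1 := by
  unfold reducesTo at h
  cases hm : reduceWord ng br s l with
  | none => simp [hm] at h
  | some r =>
    match r, hm with
    | [], hm => exact (reduceWord_spec hs hc hb s l [] hm).symm
    | _ :: _, hm => simp [hm] at h

end Cfsg.Agent.Screen.CosetEnum
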